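import Cfsg.Agent.BG.Base6

/-! Fixed point spaces of linear groups. (helper12) -/

set_option autoImplicit false
set_option linter.unusedVariables false
set_option linter.unusedSectionVars false

namespace Cfsg.Agent.Flav

open Subgroup Cfsg.Agent.BG Module
open scoped commutatorElement

local notation "Sol" => Group.IsSolvable

variable {X : Type*} [Group X] {k V : Type*} [Field k] [AddCommGroup V] [Module k V]
  (ρ : X →* Module.End k V) {A B G Y Y' : Subgroup X} {g x y : X} {v : V}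

/-- fixed points of a subgroup -/
def fix (Y : Subgroup X) : Submodule k V := ⨅ y ∈ Y, End.eigenspace (ρ y) 1

theorem mem_eig : v ∈ End.eigenspace (ρ y) 1 ↔ ρ y v = v := by simp [End.mem_eigenspace_iff]

theorem mem_fix : v ∈ fix ρ Y ↔ ∀ y ∈ Y, ρ y v = v := by simp [fix, mem_eig]

theorem rho_mul (x y : X) (v : V) : ρ (x * y) v = ρ x (ρ y v) := by simp

theorem rho_inv (x : X) (v : V) : ρ x⁻¹ (ρ x v) = v := by rw [← rho_mul]; simp

theorem rho_inv' (x : X) (v : V) : ρ x (ρ x⁻¹ v) = v := by rw [← rho_mul]; simp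

theorem rho_inj (x : X) : Function.Injective (ρ x) := Function.LeftInverse.injective (rho_inv ρ x)

/-- stabilizer of a vector -/
def stab (v : V) : Subgroup X where
  carrier := {x | ρ x v = v}
  mul_mem' {a b} ha hb := by rw [Set.mem_ofPred, rho_mul, hb, ha]
  one_mem' := by simp
  inv_mem' {a} ha := by rw [Set.mem_ofPred]; nth_rw 1 [← ha]; rw [rho_inv]

theorem mem_fix' : v ∈ fix ρ Y ↔ Y ≤ stab ρ v := mem_fix ρ

theorem fix_sup (A B : Subgroup X) : fix ρ (A ⊔ B) = fix ρ A ⊓ fix ρ B := by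
  ext v; simp [mem_fix']

theorem fix_zpowers (y : X) : fix ρ (zpowers y) = End.eigenspace (ρ y) 1 := by
  ext v; rw [mem_fix', zpowers_le, mem_eig]; rfl

theorem fix_anti (h : A ≤ B) : fix ρ B ≤ fix ρ A := fun v hv => (mem_fix' ρ).2 (h.trans ((mem_fix' ρ).1 hv))

theorem fix_bot : fix ρ (⊥ : Subgroup X) = ⊤ := eq_top_iff.2 fun v _ => (mem_fix' ρ).2 bot_le

theorem map_fix (g : X) (Y : Subgroup X) : (fix ρ Y).map (ρ g) = fix ρ (cj g Y) := by
  ext v
  simp only [Submodule.mem_map, mem_fix, mem_cj']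
  constructor
  · rintro ⟨w, hw, rfl⟩ _ ⟨y, hy, rfl⟩
    rw [rho_mul, rho_mul, rho_inv, hw y hy]
  · exact fun h => ⟨ρ g⁻¹ v, fun y hy => rho_inj ρ g (by
      rw [← rho_mul, ← rho_mul, h _ ⟨y, hy, rfl⟩, rho_inv']), rho_inv' ρ g v⟩

theorem finrank_map (g : X) (W : Submodule k V) : finrank k (W.map (ρ g)) = finrank k W :=
  (Submodule.equivMapOfInjective _ (rho_inj ρ g) W).finrank_eq.symm

theorem finrank_fix_cj (g : X) (Y : Subgroup X) : finrank k (fix ρ (cj g Y)) = finrank k (fix ρ Y) := by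
  rw [← map_fix, finrank_map]

theorem two_fix_le [FiniteDimensional k V] (x y : X) : 2 * finrank k (fix ρ (zpowers x)) ≤
    finrank k V + finrank k (fix ρ (zpowers (x * y * x⁻¹ * y⁻¹))) := by
  have h1 := Submodule.finrank_sup_add_finrank_inf_eq (fix ρ (zpowers x)) (fix ρ (cj y (zpowers x)))
  rw [finrank_fix_cj, ← fix_sup] at h1
  have h2 := Submodule.finrank_le (fix ρ (zpowers x) ⊔ fix ρ (cj y (zpowers x)))
  have h3 := Submodule.finrank_mono (fix_anti ρ (zpowers_le.2 (show x * y * x⁻¹ * y⁻¹ ∈ _ by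
    simpa [mul_assoc] using mul_mem_sup' (mem_zpowers x)
      (conj_mem_cj y (inv_mem (mem_zpowers x))))))
  omega

theorem indep_fix {ι : Type*} (hA : IsMulCommutative A) (Y : ι → Subgroup X) (h : ∀ i, Y i ≤ A)
    (h' : ∀ i j, i ≠ j → fix ρ (Y i) ⊓ fix ρ (Y j) = ⊥) : iSupIndep fun i => fix ρ (Y i) := by
  classical
  rw [iSupIndep_iff_finsetSum_eq_zero_imp_eq_zero]
  intro s
  induction s using Finset.induction_on with
  | empty => simp
  | insert j s hj ih =>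
  intro w hw h0
  have h1 : ∀ i ∈ s, w i = 0 := fun i hi => (Submodule.eq_bot_iff _).1 (h' i j (by rintro rfl; exact hj hi)) _
    ⟨hw i (Finset.mem_insert_of_mem hi), (mem_fix ρ).2 fun y hy => sub_eq_zero.1 (ih (fun i => ρ y (w i) - w i)
      (fun i hi => (mem_fix ρ).2 fun z hz => by
        have := (mem_fix ρ).1 (hw i (Finset.mem_insert_of_mem hi)) z hz
        rw [map_sub, this, ← rho_mul, hA.comm (h i hz) (h j hy), rho_mul, this]) (by
        rw [Finset.sum_insert hj, add_eq_zero_iff_neg_eq] at h0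
        rw [Finset.sum_sub_distrib, ← map_sum, ← h0, map_neg,
          (mem_fix ρ).1 (hw j (Finset.mem_insert_self j s)) y hy, sub_self]) i hi)⟩
  rw [Finset.sum_insert hj, Finset.sum_eq_zero h1, add_zero] at h0
  simpa [h0] using h1

variable [Finite X]

/-- An abelian normal subgroup with an element having nonzero fixed points yields a system of
imprimitivity. -/
theorem exists_imprim (hA : A ⊴ G) (hc : IsMulCommutative A) (hY : Y ≤ A) (h0 : fix ρ Y ≠ ⊥) :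
    ∃ Y', Y ≤ Y' ∧ Y' ≤ A ∧ fix ρ Y' ≠ ⊥ ∧ ∃ (t : ℕ) (f : Fin t → X), (∀ i, f i ∈ G) ∧
      (iSupIndep fun i => fix ρ (cj (f i) Y')) ∧ (Function.Injective fun i => cj (f i) Y') ∧
      ∀ g ∈ G, ∃ i, cj g Y' = cj (f i) Y' := by
  obtain ⟨Z, h1, ⟨h2, h3⟩, hm⟩ := maxgroup_exists (P := fun Y => Y ≤ A ∧ fix ρ Y ≠ ⊥) ⟨hY, h0⟩
  obtain ⟨t, ⟨e⟩⟩ := Finite.exists_equiv_fin {W // ∃ g ∈ G, cj g Z = W}
  choose f hf hf' using fun i => (e.symm i).2
  have inj : Function.Injective fun i => cj (f i) Z := fun i j h =>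
    e.symm.injective (Subtype.ext (by rw [← hf', ← hf']; exact h))
  refine ⟨Z, h1, h2, h3, t, f, hf, indep_fix ρ hc _ (fun i => cj_le_of_norm (hA.norm (hf i)) h2)
    fun i j hij => by_contra fun h4 => hij (inj ?_), inj, fun g hg => ⟨e ⟨_, g, hg, rfl⟩, by simp [hf']⟩⟩
  rw [← fix_sup] at h4
  have h5 := hm (cj (f i)⁻¹ (cj (f i) Z ⊔ cj (f j) Z)) ⟨cj_le_of_norm (hA.norm (inv_mem (hf i)))
    (sup_le (cj_le_of_norm (hA.norm (hf i)) h2) (cj_le_of_norm (hA.norm (hf j)) h2)), fun h5 => h4 (by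
      rw [← cj_cj_inv (f i) (_ ⊔ _), ← map_fix, h5, Submodule.map_bot])⟩
    (by rw [cj_sup, cj_inv_cj]; exact le_sup_left)
  rw [cj_eq_iff, inv_inv, sup_eq_left] at h5
  exact (eq_of_card_le h5 (by simp)).symm

theorem exists_crit (hs : Sol G) : ∃ A B, A ⊴ G ∧ IsMulCommutative A ∧ B ≤ G ∧ G ≤ N[B] ∧
    ⁅B, B⁆ ≤ A ∧ G ⊓ C[B] ≤ A := by
  obtain ⟨A, -, ⟨h1, h2⟩, hA⟩ := maxgroup_exists (P := fun A => A ⊴ G ∧ IsMulCommutative A)
    ⟨normal_bot G, abelian_bot⟩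
  obtain ⟨B, h3, ⟨h4, h5, h6⟩, hB⟩ := maxgroup_exists (P := fun B => B ⊴ G ∧ B ≤ C[A] ∧ ⁅B, B⁆ ≤ A)
    ⟨h1, h2.cent, der_sub A⟩
  have h7 : Z[B] = A := hA _ ⟨h4.center, center_abelian B⟩ (le_inf h3 (cents_symm h5))
  refine ⟨A, B, h1, h2, h4.le, h4.norm, h6, h7 ▸ le_inf (by_contra fun h8 => ?_) inf_le_right⟩
  obtain ⟨K, h9, hK⟩ := chief_factor_exists h4 (h4.sup (subcent_normal h4.norm)) (left_lt_sup.2 h8)
  obtain ⟨p, -, h10⟩ := sol_chief_abelem (solvableS hK.le hs) hK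
  have h11 := group_modl (A := B) (B := G ⊓ C[B]) (.inr (inf_le_left.trans h4.norm)) hK.lt.le
  rw [inf_eq_left.2 h9] at h11
  have h12 : K ⊓ (G ⊓ C[B]) ≤ C[B] := inf_le_right.trans inf_le_right
  refine hK.lt.ne' (hB K ⟨hK.normalU, h9.trans (sup_le h5 (inf_le_right.trans (centS h3))), ?_⟩ hK.lt.le)
  rw [h11, der_sup_cent h12]
  exact sup_le h6 (h7 ▸ le_inf ((dergS inf_le_left).trans (der1_min hK.normal.norm h10.abelian))
    ((der_sub _).trans h12))

theorem four_fix_le [FiniteDimensional k V] (hs : Sol G)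
    (h : ∀ A, A ⊴ G → IsMulCommutative A → ∀ a ∈ A, a ≠ 1 → fix ρ (zpowers a) = ⊥)
    (hg : g ∈ G) (h1 : g ≠ 1) : 4 * finrank k (fix ρ (zpowers g)) ≤ 3 * finrank k V := by
  obtain ⟨A, B, h2, h3, h4, h5, h6, h7⟩ := exists_crit hs
  have key : ∀ g ∈ G, g ≠ 1 → finrank k (fix ρ (zpowers g)) = 0 ∨
      ∃ b ∈ B, g * b * g⁻¹ * b⁻¹ ≠ 1 := fun g hg h1 => by
    by_cases h8 : g ∈ A
    · exact .inl (by rw [h A h2 h3 g h8 h1, finrank_bot])
    · by_contra h9; push Not at h9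
      exact h8 (h7 ⟨hg, mem_cent.2 fun b hb => by
        rw [eq_comm, ← mul_inv_eq_one, ← h9.2 b hb]; group⟩)
  rcases key g hg h1 with h8 | ⟨b, hb, h8⟩
  · omega
  have h9 := two_fix_le ρ g b
  have h10 := B.mul_mem (conj_mem_of_norm (h5 hg) hb) (B.inv_mem hb)
  rcases key _ (h4 h10) h8 with h11 | ⟨c, hc, h11⟩
  · omega
  have h12 := two_fix_le ρ (g * b * g⁻¹ * b⁻¹) c
  rw [h A h2 h3 (_ * c * _ * c⁻¹) (h6 (commutator_mem_commutator h10 hc)) h11, finrank_bot] at h12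
  omega

end Cfsg.Agent.Flav
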